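import Mathlib
import Cfsg.Agent.H19.RP.Dick
import Cfsg.Agent.ThreePrime.Main
import Cfsg.Agent.H101.SzSub
import Cfsg.Agent.S1163
import Cfsg.Agent.S0205

/-!
# Simple subgroups of `PSL₂(2^f)` and of the Suzuki groups (helper67)
-/

set_option autoImplicit false

open Cfsg Matrix

namespace Cfsg.Agent.H67.RG

open Cfsg.Agent.H19.RP

universe u v

theorem two_dvd_simple {S : Type*} [Group S] [Finite S] [IsSimpleGroup S] (hna : ¬ IsMulCommutative S) :
    2 ∣ Nat.card S := by
  by_contra h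
  have hodd : Odd (Nat.card S) := by rw [← Nat.not_even_iff_odd, even_iff_two_dvd]; exact h
  have hs := Cfsg.Agent.S0205.result hodd
  exact hna ⟨⟨IsSimpleGroup.comm_iff_isSolvable.2 hs⟩⟩

/-- **Simple subgroups of `PSL₂(F)`, `F` of characteristic 2.** -/
theorem psl_sub_two {F : Type v} [Field F] [Fintype F] [CharP F 2]
    (H : Subgroup (ProjectiveSpecialLinearGroup (Fin 2) F)) (hs : IsSimpleGroup H) (hc : ¬ IsMulCommutative H) :
    ∃ (K : Type) (_ : Field K) (_ : Fintype K) (e : ℕ), 2 ≤ e ∧ Fintype.card K = 2 ^ e ∧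
      Nonempty (H ≃* ProjectiveSpecialLinearGroup (Fin 2) K) := by
  have hp : Fact (Nat.Prime 2) := ⟨Nat.prime_two⟩
  have h60 : 60 ≤ Nat.card H := Cfsg.Agent.H894.sixty_le hc
  have h2H : 2 ∣ Nat.card H := two_dvd_simple hc
  have hns : ¬ Group.IsSolvable H := by
    intro h
    apply hc
    exact ⟨⟨fun a b => IsSimpleGroup.comm_iff_isSolvable.2 h a b⟩⟩
  -- the order of `K`
  have hpow : ∀ {K : Type} [Field K] [Fintype K] {m : ℕ}, Fintype.card K ^ m = Fintype.card F →
      Nonempty (H ≃* ProjectiveSpecialLinearGroup (Fin 2) K) → ∃ e : ℕ, 2 ≤ e ∧ Fintype.card K = 2 ^ e := by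
    intro K _ _ m hm he
    have := charP_of_pow 2 hm
    obtain ⟨n', -, hn⟩ := FiniteField.card K 2
    obtain ⟨n, hn0, hn1⟩ : ∃ n : ℕ, 0 < n ∧ (n' : ℕ) = n := ⟨n', n'.pos, rfl⟩
    rw [hn1] at hn
    refine ⟨n, ?_, hn⟩
    by_contra hlt
    have h1 : n = 1 := by omega
    obtain ⟨e⟩ := he
    have h2 := card_psl_small (K := K) (by rw [hn, h1]; norm_num)
    rw [← Nat.card_congr e.toEquiv] at h2
    omega
  rcases Cfsg.Agent.S0799.result (q := Fintype.card F) rfl 2 H with ⟨k, -, h | ⟨⟨e⟩⟩⟩ | ⟨P, K, hK, ⟨e⟩⟩ | ⟨⟨e⟩⟩ | ⟨⟨e⟩⟩ |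
    ⟨⟨e⟩⟩ | ⟨K, _, _, m, hm, ⟨⟨e⟩⟩ | ⟨⟨e⟩⟩⟩
  · exfalso
    obtain ⟨h1, -⟩ := h
    exact hc ⟨⟨fun a b => h1.isMulCommutative.is_comm.comm a b⟩⟩
  · exfalso
    apply hns
    have := Cfsg.Agent.ClassicalGeometry.PSL2Solvable.isSolvable_dihedral k
    exact Group.isSolvable_of_isSolvable_injective (f := e.toMonoidHom) e.injective
  · exfalso
    have : IsSimpleGroup K := e.symm.isSimpleGroup
    let P' : Subgroup K := (P : Subgroup (ProjectiveSpecialLinearGroup (Fin 2) F)).subgroupOf K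
    have hPn : P'.Normal := by
      constructor
      intro x hx g
      have h1 := hK g.2
      rw [Subgroup.mem_subgroupOf] at hx ⊢
      have h2 := (Subgroup.mem_normalizer_iff.1 h1 (x : ProjectiveSpecialLinearGroup (Fin 2) F)).1 hx
      exact h2
    rcases hPn.eq_bot_or_eq_top with h | h
    · have h1 : 2 ∣ Nat.card K := by rw [← Nat.card_congr e.toEquiv]; exact h2H
      obtain ⟨x, hx⟩ := exists_prime_orderOf_dvd_card' (G := K) 2 h1
      have hxP : IsPGroup 2 (Subgroup.zpowers (x : ProjectiveSpecialLinearGroup (Fin 2) F)) := by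
        refine IsPGroup.of_card (n := 1) ?_
        rw [Nat.card_zpowers, Subgroup.orderOf_coe, hx, pow_one]
      have h2 : (x : ProjectiveSpecialLinearGroup (Fin 2) F) ∈ (P : Subgroup (ProjectiveSpecialLinearGroup (Fin 2) F)) := by
        have h3 : IsPGroup 2 ((P : Subgroup (ProjectiveSpecialLinearGroup (Fin 2) F)) ⊔
            Subgroup.zpowers (x : ProjectiveSpecialLinearGroup (Fin 2) F) : Subgroup _) :=
          IsPGroup.to_sup_of_normal_left' P.isPGroup' hxP (by
            rw [Subgroup.zpowers_le]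
            exact hK x.2)
        have h4 := P.is_maximal' h3 le_sup_left
        have h5 : (x : ProjectiveSpecialLinearGroup (Fin 2) F) ∈ ((P : Subgroup (ProjectiveSpecialLinearGroup (Fin 2) F)) ⊔
            Subgroup.zpowers (x : ProjectiveSpecialLinearGroup (Fin 2) F) : Subgroup _) :=
          (le_sup_right : Subgroup.zpowers _ ≤ _) (Subgroup.mem_zpowers _)
        rwa [h4] at h5
      have h6 : x ∈ P' := Subgroup.mem_subgroupOf.2 h2
      rw [h, Subgroup.mem_bot] at h6
      rw [h6, orderOf_one] at hx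
      exact absurd hx (by norm_num)
    · apply hns
      have h1 : IsPGroup 2 K := by
        have h2 : K ≤ P := by
          intro x hx
          have h3 : (⟨x, hx⟩ : K) ∈ P' := by rw [h]; trivial
          exact Subgroup.mem_subgroupOf.1 h3
        exact P.isPGroup'.to_le h2
      have h2 : Group.IsNilpotent K := h1.isNilpotent
      have h3 : Group.IsSolvable K := inferInstance
      exact Group.isSolvable_of_isSolvable_injective (f := e.toMonoidHom) e.injective
  · exfalso
    rw [Nat.card_congr e.toEquiv, nat_card_alternatingGroup] at h60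
    norm_num [Nat.factorial] at h60
  · exfalso
    rw [Nat.card_congr e.toEquiv, Nat.card_perm, Nat.card_fin] at h60
    norm_num [Nat.factorial] at h60
  · have hc4 : Nat.card (GaloisField 2 2) = 4 := by rw [GaloisField.card 2 2 (by norm_num)]; norm_num
    have hfin : Finite (GaloisField 2 2) := Nat.finite_of_card_ne_zero (by rw [hc4]; norm_num)
    let _ : Fintype (GaloisField 2 2) := Fintype.ofFinite _
    have hc' : Fintype.card (GaloisField 2 2) = 4 := by rw [← Nat.card_eq_fintype_card]; exact hc4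
    obtain ⟨f⟩ := Cfsg.Agent.S0252.result hc'
    exact ⟨GaloisField 2 2, inferInstance, inferInstance, 2, le_rfl, by rw [hc']; norm_num, ⟨e.trans f.symm⟩⟩
  · obtain ⟨n, hn, hn'⟩ := hpow hm ⟨e⟩
    exact ⟨K, inferInstance, inferInstance, n, hn, hn', ⟨e⟩⟩
  · have hsp : IsSimpleGroup (ProjGenLinGroup (Fin 2) K) := e.symm.isSimpleGroup
    obtain ⟨f⟩ := pgl_psl hsp
    obtain ⟨n, hn, hn'⟩ := hpow hm ⟨e.trans f⟩
    exact ⟨K, inferInstance, inferInstance, n, hn, hn', ⟨e.trans f⟩⟩

/-- **A nonabelian simple group embedded in `PSL₂(F)`, `F` of characteristic 2, is some `PSL₂(2^e)`.** -/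
theorem simple_le_L2 {T : Type u} [Group T] [Finite T] [IsSimpleGroup T] (hT : ¬ IsMulCommutative T) {F : Type v} [Field F]
    [Fintype F] [CharP F 2] (f : T →* ProjectiveSpecialLinearGroup (Fin 2) F) (hf : Function.Injective f) :
    ∃ (K : Type) (_ : Field K) (_ : Fintype K) (e : ℕ), 2 ≤ e ∧ Fintype.card K = 2 ^ e ∧
      Nonempty (T ≃* ProjectiveSpecialLinearGroup (Fin 2) K) := by
  have e0 : T ≃* f.range := MonoidHom.ofInjective hf
  have hs : IsSimpleGroup f.range := e0.symm.isSimpleGroup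
  have hc : ¬ IsMulCommutative f.range := fun h => hT ⟨⟨fun a b => e0.injective (by
    rw [map_mul, map_mul]
    exact h.is_comm.comm _ _)⟩⟩
  obtain ⟨K, iK, iK', n, hn, hn', ⟨e⟩⟩ := psl_sub_two f.range hs hc
  exact ⟨K, iK, iK', n, hn, hn', ⟨e0.trans e⟩⟩

/-- **A nonabelian simple group embedded in a group of order prime to 3 is a Suzuki group.** -/
theorem suzuki_of_embed {T : Type u} [Group T] [Finite T] [IsSimpleGroup T] (hT : ¬ IsMulCommutative T) {Y : Type v}
    [Group Y] [Finite Y] (h3 : ¬ 3 ∣ Nat.card Y) (f : T →* Y) (hf : Function.Injective f) : Lie.IsoSuzuki T :=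
  Cfsg.Agent.ThreePrime.Main.isoSuzuki' hT fun h => h3 (h.trans (Subgroup.card_dvd_of_injective f hf))

/-- in the ovoid model -/
theorem simple_le_Sz {T : Type u} [Group T] [Finite T] [IsSimpleGroup T] (hT : ¬ IsMulCommutative T) {F : Type v} [Field F]
    [Fintype F] {m : ℕ} (hm : 1 ≤ m) (hF : Fintype.card F = 2 ^ (2 * m + 1)) (f : T →* Cfsg.Sz F m)
    (hf : Function.Injective f) : Lie.IsoSuzuki T :=
  suzuki_of_embed hT (Cfsg.Agent.H101.SzSub.three_not_dvd hm hF) f hf

/-- in the matrix model -/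
theorem simple_le_LieSz {T : Type u} [Group T] [Finite T] [IsSimpleGroup T] (hT : ¬ IsMulCommutative T) {F : Type v}
    [Field F] [Fintype F] {m : ℕ} (hm : 1 ≤ m) (hF : Fintype.card F = 2 ^ (2 * m + 1)) (f : T →* Lie.Sz F (2 ^ (m + 1)))
    (hf : Function.Injective f) : Lie.IsoSuzuki T := by
  have h := (Cfsg.Agent.S1163.result (F := F) hm hF).1
  have h2 := Cfsg.Agent.H101.SzSub.three_not_dvd hm hF
  refine suzuki_of_embed hT ?_ f hf
  rw [h]
  rw [Cfsg.Agent.LieExceptional.SuzukiSylow.card_Sz hm hF] at h2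
  intro h3
  apply h2
  have e : ((2 ^ (2 * m + 1)) ^ 2 + 1) * ((2 ^ (2 * m + 1)) ^ 2 * (2 ^ (2 * m + 1) - 1)) =
      (2 ^ (2 * m + 1)) ^ 2 * (2 ^ (2 * m + 1) - 1) * ((2 ^ (2 * m + 1)) ^ 2 + 1) := by ring
  rw [e]
  exact h3

end Cfsg.Agent.H67.RG
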